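import Mathlib
import Cfsg.Prelude

/-!
# HALF project (S3371, Passman: half-transitive p-groups of linear maps)

Interface file: definitions and one `Prop` per package.
-/

set_option autoImplicit false

universe u v

namespace Cfsg.Agent.Lib.Helper68.Half

/-- the stabilizer of the vector `w` -/
def St {q : ℕ} [Fact q.Prime] {V : Type u} [AddCommGroup V] [Module (ZMod q) V]
    {G : Type v} [Group G] (ρ : G →* (V ≃ₗ[ZMod q] V)) (w : V) : Subgroup G where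
  carrier := {g | ρ g w = w}
  one_mem' := by simp
  mul_mem' := by
    intro a b ha hb
    show ρ (a * b) w = w
    have ha' : ρ a w = w := ha
    have hb' : ρ b w = w := hb
    rw [map_mul, LinearEquiv.mul_apply, hb', ha']
  inv_mem' := by
    intro a ha
    show ρ a⁻¹ w = w
    have ha' : ρ a w = w := ha
    have h1 : ρ a⁻¹ (ρ a w) = w := by
      rw [← LinearEquiv.mul_apply, ← map_mul, inv_mul_cancel, map_one]
      rfl
    rw [ha'] at h1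
    exact h1

theorem mem_St {q : ℕ} [Fact q.Prime] {V : Type u} [AddCommGroup V] [Module (ZMod q) V]
    {G : Type v} [Group G] (ρ : G →* (V ≃ₗ[ZMod q] V)) (w : V) (g : G) :
    g ∈ St ρ w ↔ ρ g w = w := Iff.rfl

/-- half-transitive: the hypothesis of S3371 -/
def HalfT {q : ℕ} [Fact q.Prime] {V : Type u} [AddCommGroup V] [Module (ZMod q) V]
    {G : Type v} [Group G] (ρ : G →* (V ≃ₗ[ZMod q] V)) : Prop :=
  ∀ v w : V, v ≠ 0 → w ≠ 0 →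
    Nat.card {u : V | ∃ g : G, ρ g v = u} = Nat.card {u : V | ∃ g : G, ρ g w = u}

/-- semiregular on the non-zero vectors -/
def Semi {q : ℕ} [Fact q.Prime] {V : Type u} [AddCommGroup V] [Module (ZMod q) V]
    {G : Type v} [Group G] (ρ : G →* (V ≃ₗ[ZMod q] V)) : Prop :=
  ∀ v : V, v ≠ 0 → ∀ g : G, ρ g v = v → g = 1

/-- all stabilizers of non-zero vectors have the same order -/
def EqSt {q : ℕ} [Fact q.Prime] {V : Type u} [AddCommGroup V] [Module (ZMod q) V]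
    {G : Type v} [Group G] (ρ : G →* (V ≃ₗ[ZMod q] V)) : Prop :=
  ∀ v w : V, v ≠ 0 → w ≠ 0 → Nat.card (St ρ v) = Nat.card (St ρ w)

/-- non-identity central elements have no non-zero fixed vector -/
def CentFpf {q : ℕ} [Fact q.Prime] {V : Type u} [AddCommGroup V] [Module (ZMod q) V]
    {G : Type v} [Group G] (ρ : G →* (V ≃ₗ[ZMod q] V)) : Prop :=
  ∀ z ∈ Subgroup.center G, z ≠ 1 → ∀ v : V, ρ z v = v → v = 0

/-- the submodule `W` is invariant -/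
def Inv {q : ℕ} [Fact q.Prime] {V : Type u} [AddCommGroup V] [Module (ZMod q) V]
    {G : Type v} [Group G] (ρ : G →* (V ≃ₗ[ZMod q] V)) (W : Submodule (ZMod q) V) : Prop :=
  ∀ g : G, ∀ w ∈ W, ρ g w ∈ W

/-- the conclusion of the landed S3380 -/
def Impr {q : ℕ} [Fact q.Prime] {V : Type u} [AddCommGroup V] [Module (ZMod q) V]
    {G : Type v} [Group G] (p : ℕ) (ρ : G →* (V ≃ₗ[ZMod q] V)) (H : Subgroup G)
    (W : Fin p → Submodule (ZMod q) V) : Prop :=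
  H.index = p ∧ iSup W = ⊤ ∧ iSupIndep W ∧
    (∀ h ∈ H, ∀ i, ∀ w ∈ W i, ρ h w ∈ W i) ∧
    (∀ i, ∃ h ∈ H, h ≠ 1 ∧ ∀ w ∈ W i, ρ h w = w) ∧
    ∀ g : G, g ∉ H → ∃ σ : Equiv.Perm (Fin p), orderOf σ = p ∧
      ∀ i, (W i).map (ρ g : V →ₗ[ZMod q] V) = W (σ i)

/-- the data of a cyclic subgroup `C` of index 2 with central involution `z`, all involutions
`t` outside `C` conjugate to `t z` -/
def MCData {G : Type v} [Group G] (C : Subgroup G) (z : G) : Prop :=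
  C.index = 2 ∧ z ∈ C ∧ z ∈ Subgroup.center G ∧ z ≠ 1 ∧ z * z = 1 ∧
    (∀ c ∈ C, c ≠ 1 → ∃ j : ℕ, c ^ j = z) ∧
    (∀ t : G, t ∉ C → t * t = 1 → ∃ g : G, g * t * g⁻¹ = t * z)

/-- monomial data in the basis `e₀, e₁` -/
def MonoData {q : ℕ} [Fact q.Prime] {V : Type u} [AddCommGroup V] [Module (ZMod q) V]
    {G : Type v} [Group G] (ρ : G →* (V ≃ₗ[ZMod q] V)) (H : Subgroup G) (e₀ e₁ : V) (x₀ : G) :
    Prop :=
  H.index = 2 ∧ x₀ ∉ H ∧ ρ x₀ e₀ = e₁ ∧ ρ x₀ e₁ = e₀ ∧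
    (∀ a : ZMod q, a ≠ 0 → ∃ h ∈ H, ρ h e₀ = a • e₀ ∧ ρ h e₁ = a⁻¹ • e₁) ∧
    (∃ h ∈ H, ρ h e₀ = e₀ ∧ ρ h e₁ = -e₁) ∧
    (∀ h ∈ H, ∃ a : ZMod q, a ≠ 0 ∧ ρ h e₀ = a • e₀ ∧
      (ρ h e₁ = a⁻¹ • e₁ ∨ ρ h e₁ = -(a⁻¹ • e₁))) ∧
    (∀ v : V, ∃ c₀ c₁ : ZMod q, v = c₀ • e₀ + c₁ • e₁) ∧
    (∀ c₀ c₁ : ZMod q, c₀ • e₀ + c₁ • e₁ = 0 → c₀ = 0 ∧ c₁ = 0)

/-- the third alternative of S3371 (without the cardinality and Fermat parts) -/
def MonoConcl {q : ℕ} [Fact q.Prime] {V : Type u} [AddCommGroup V] [Module (ZMod q) V]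
    {G : Type v} [Group G] (ρ : G →* (V ≃ₗ[ZMod q] V)) : Prop :=
  ∃ e : V ≃ₗ[ZMod q] (Fin 2 → ZMod q),
    ∀ f : (Fin 2 → ZMod q) ≃ₗ[ZMod q] (Fin 2 → ZMod q),
      (∃ g : G, f = e.symm.trans ((ρ g).trans e)) ↔
      ∃ a s : ZMod q, a ≠ 0 ∧ (s = 1 ∨ s = -1) ∧
        ((∀ v, f v = ![a * v 0, s * a⁻¹ * v 1]) ∨ (∀ v, f v = ![s * a⁻¹ * v 1, a * v 0]))

/-! ### general packages -/

/-- [STAB] -/
def PkgStab : Prop :=
  ∀ {q : ℕ} [Fact q.Prime] {V : Type u} [AddCommGroup V] [Module (ZMod q) V] [Finite V]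
    {G : Type v} [Group G] [Finite G] (ρ : G →* (V ≃ₗ[ZMod q] V)), HalfT ρ → EqSt ρ

/-- [FIXQ] -/
def PkgFixQ : Prop :=
  ∀ {q : ℕ} [Fact q.Prime] {V : Type u} [AddCommGroup V] [Module (ZMod q) V] [Finite V]
    [Nontrivial V] {G : Type v} [Group G] [Finite G] (ρ : G →* (V ≃ₗ[ZMod q] V)),
    IsPGroup q G → ∃ v : V, v ≠ 0 ∧ ∀ g : G, ρ g v = v

/-- [UNIQ] -/
def PkgUniq : Prop :=
  ∀ {q : ℕ} [Fact q.Prime] {V : Type u} [AddCommGroup V] [Module (ZMod q) V] [Finite V]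
    [Nontrivial V] {G : Type v} [Group G] [Finite G] (p : ℕ) [Fact p.Prime]
    (ρ : G →* (V ≃ₗ[ZMod q] V)), IsPGroup p G → p ≠ q → Semi ρ →
    ∀ H K : Subgroup G, Nat.card H = p → Nat.card K = p → H = K

/-- [SPLIT] -/
def PkgSplit : Prop :=
  ∀ {q : ℕ} [Fact q.Prime] {V : Type u} [AddCommGroup V] [Module (ZMod q) V] [Finite V]
    {G : Type v} [Group G] [Finite G] (ρ : G →* (V ≃ₗ[ZMod q] V)), EqSt ρ →
    ∀ U₁ U₂ : Submodule (ZMod q) V, Inv ρ U₁ → Inv ρ U₂ → U₁ ⊓ U₂ = ⊥ →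
    ∀ u₁ ∈ U₁, ∀ u₂ ∈ U₂, u₁ ≠ 0 → u₂ ≠ 0 → St ρ u₁ = St ρ u₂

/-- [CENT] -/
def PkgCent : Prop :=
  ∀ {q : ℕ} [Fact q.Prime] {V : Type u} [AddCommGroup V] [Module (ZMod q) V] [Finite V]
    {G : Type v} [Group G] [Finite G] (p : ℕ) [Fact p.Prime]
    (ρ : G →* (V ≃ₗ[ZMod q] V)), IsPGroup p G → p ≠ q → Function.Injective ρ → EqSt ρ →
    CentFpf ρ

/-- [MASCHKE] -/
def PkgMaschke : Prop :=
  ∀ {q : ℕ} [Fact q.Prime] {V : Type u} [AddCommGroup V] [Module (ZMod q) V] [Finite V]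
    {G : Type v} [Group G] [Finite G] (p : ℕ) [Fact p.Prime]
    (ρ : G →* (V ≃ₗ[ZMod q] V)), IsPGroup p G → p ≠ q →
    ∀ W : Submodule (ZMod q) V, Inv ρ W →
    ∃ W' : Submodule (ZMod q) V, Inv ρ W' ∧ W ⊓ W' = ⊥ ∧ W ⊔ W' = ⊤

/-- [IRR] -/
def PkgIrr : Prop :=
  ∀ {q : ℕ} [Fact q.Prime] {V : Type u} [AddCommGroup V] [Module (ZMod q) V] [Finite V]
    {G : Type v} [Group G] [Finite G] (p : ℕ) [Fact p.Prime]
    (ρ : G →* (V ≃ₗ[ZMod q] V)), IsPGroup p G → p ≠ q → Function.Injective ρ → EqSt ρ →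
    ¬ Semi ρ → ∀ W : Submodule (ZMod q) V, Inv ρ W → W = ⊥ ∨ W = ⊤

/-- [QUAT] -/
def PkgQuat : Prop :=
  ∀ {q : ℕ} [Fact q.Prime] {V : Type u} [AddCommGroup V] [Module (ZMod q) V] [Finite V]
    {G : Type v} [Group G] [Finite G] (p : ℕ) [Fact p.Prime]
    (ρ : G →* (V ≃ₗ[ZMod q] V)), IsPGroup p G → CentFpf ρ →
    (∃ n : ℕ, Nonempty (G ≃* QuaternionGroup n)) → Semi ρ

/-! ### the dihedral / semidihedral case -/

/-- [CORE] -/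
def PkgCore : Prop :=
  ∀ {q : ℕ} [Fact q.Prime] {V : Type u} [AddCommGroup V] [Module (ZMod q) V] [Finite V]
    {G : Type v} [Group G] [Finite G] (ρ : G →* (V ≃ₗ[ZMod q] V)), q ≠ 2 → EqSt ρ →
    ¬ Semi ρ → CentFpf ρ → ∀ (C : Subgroup G) (z : G), MCData C z →
    ∃ Q : ℕ, Nat.card V = Q * Q ∧ Q + 1 = Nat.card {t : G // t ∉ C ∧ t * t = 1}

/-- [DIH] -/
def PkgDih : Prop :=
  ∀ {G : Type v} [Group G] [Finite G] (n : ℕ), IsPGroup 2 G →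
    Nonempty (G ≃* DihedralGroup n) → ¬ (∀ a b : G, a * b = b * a) →
    ∃ (k : ℕ) (C : Subgroup G) (z : G), n = 2 ^ k ∧ MCData C z ∧
      Nat.card {t : G // t ∉ C ∧ t * t = 1} = 2 ^ k

/-- [SD] -/
def PkgSD : Prop :=
  ∀ {G : Type v} [Group G] [Finite G], Cfsg.IsQuasiDihedral G →
    ∃ (k : ℕ) (C : Subgroup G) (z : G), Nat.card G = 2 ^ (k + 2) ∧ MCData C z ∧
      Nat.card {t : G // t ∉ C ∧ t * t = 1} = 2 ^ k

/-- [MERS] -/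
def PkgMers : Prop :=
  ∀ q d Q j : ℕ, q.Prime → q ^ d = Q * Q → Q + 1 = 2 ^ j → 2 ≤ Q → Q = q

/-! ### the imprimitive case -/

/-- [IMPODD] -/
def PkgImpOdd : Prop :=
  ∀ {q : ℕ} [Fact q.Prime] {V : Type u} [AddCommGroup V] [Module (ZMod q) V] [Finite V]
    [Nontrivial V] {G : Type v} [Group G] [Finite G] (p : ℕ) [Fact p.Prime]
    (ρ : G →* (V ≃ₗ[ZMod q] V)), Function.Injective ρ → EqSt ρ →
    ∀ (H : Subgroup G) (W : Fin p → Submodule (ZMod q) V), Impr p ρ H W → p = 2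

/-- [IMPTR] -/
def PkgImpTr : Prop :=
  ∀ {q : ℕ} [Fact q.Prime] {V : Type u} [AddCommGroup V] [Module (ZMod q) V] [Finite V]
    [Nontrivial V] {G : Type v} [Group G] [Finite G]
    (ρ : G →* (V ≃ₗ[ZMod q] V)), Function.Injective ρ → EqSt ρ →
    ∀ (H : Subgroup G) (W : Fin 2 → Submodule (ZMod q) V), Impr 2 ρ H W →
    ∀ w w' : V, w ∈ W 0 → w' ∈ W 0 → w ≠ 0 → w' ≠ 0 → ∃ h ∈ H, ρ h w = w'

/-- [IMPQUOT] -/
def PkgImpQuot : Prop :=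
  ∀ {q : ℕ} [Fact q.Prime] {V : Type u} [AddCommGroup V] [Module (ZMod q) V] [Finite V]
    [Nontrivial V] {G : Type v} [Group G] [Finite G]
    (ρ : G →* (V ≃ₗ[ZMod q] V)), IsPGroup 2 G → q ≠ 2 → Function.Injective ρ → EqSt ρ →
    ∀ (H : Subgroup G) (W : Fin 2 → Submodule (ZMod q) V), Impr 2 ρ H W →
    (Nat.card (W 0) = q ∧ ∃ m : ℕ, q = 2 ^ m + 1) ∨ (q = 3 ∧ Nat.card (W 0) = 9)

/-- [IMPCARD] -/
def PkgImpCard : Prop :=
  ∀ {q : ℕ} [Fact q.Prime] {V : Type u} [AddCommGroup V] [Module (ZMod q) V] [Finite V]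
    {G : Type v} [Group G] [Finite G]
    (ρ : G →* (V ≃ₗ[ZMod q] V)) (H : Subgroup G) (W : Fin 2 → Submodule (ZMod q) V),
    Impr 2 ρ H W → Nat.card V = Nat.card (W 0) * Nat.card (W 0)

/-- [IMPBASIS] -/
def PkgImpBasis : Prop :=
  ∀ {q : ℕ} [Fact q.Prime] {V : Type u} [AddCommGroup V] [Module (ZMod q) V] [Finite V]
    [Nontrivial V] {G : Type v} [Group G] [Finite G]
    (ρ : G →* (V ≃ₗ[ZMod q] V)), q ≠ 2 → Function.Injective ρ → EqSt ρ →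
    ∀ (H : Subgroup G) (W : Fin 2 → Submodule (ZMod q) V), Impr 2 ρ H W →
    Nat.card (W 0) = q → ∃ (e₀ e₁ : V) (x₀ : G), MonoData ρ H e₀ e₁ x₀

/-- [IMPEXACT] -/
def PkgImpExact : Prop :=
  ∀ {q : ℕ} [Fact q.Prime] {V : Type u} [AddCommGroup V] [Module (ZMod q) V] [Finite V]
    {G : Type v} [Group G] [Finite G]
    (ρ : G →* (V ≃ₗ[ZMod q] V)) (H : Subgroup G) (e₀ e₁ : V) (x₀ : G),
    MonoData ρ H e₀ e₁ x₀ → MonoConcl ρ

end Cfsg.Agent.Lib.Helper68.Half
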