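import Mathlib
import Cfsg.Agent.Lib.Helper68.Half.Defs
import Cfsg.Agent.S0016
import Cfsg.Agent.S3380
import Cfsg.Agent.Lib.Helper26.HUPT.Card

/-!
# HALF project (S3371): assembly of the packages
-/

set_option autoImplicit false
set_option linter.style.haveILetI false

universe u v

namespace Cfsg.Agent.Lib.Helper68.Half

theorem ptwo_of_even {G : Type v} [Group G] [Finite G] (p : ℕ) [Fact p.Prime]
    (hG : IsPGroup p G) (h2 : 2 ∣ Nat.card G) : p = 2 := by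
  obtain ⟨k, hk⟩ := IsPGroup.iff_card.1 hG
  rw [hk] at h2
  have h3 := Nat.Prime.dvd_of_dvd_pow Nat.prime_two h2
  exact ((Nat.prime_dvd_prime_iff_eq Nat.prime_two (Fact.out)).1 h3).symm

theorem semi_of_abelian {q : ℕ} [Fact q.Prime] {V : Type u} [AddCommGroup V]
    [Module (ZMod q) V] {G : Type v} [Group G] (ρ : G →* (V ≃ₗ[ZMod q] V))
    (hc : CentFpf ρ) (hab : ∀ a b : G, a * b = b * a) : Semi ρ := by
  intro v hv g hg
  by_contra hne
  exact hv (hc g (Subgroup.mem_center_iff.2 (fun x => hab x g)) hne v hg)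

/-- S3371 from the packages -/
theorem half_main (hStab : PkgStab.{u, v}) (hFixQ : PkgFixQ.{u, v}) (hUniq : PkgUniq.{u, v})
    (hCent : PkgCent.{u, v}) (hIrr : PkgIrr.{u, v}) (hQuat : PkgQuat.{u, v})
    (hCore : PkgCore.{u, v}) (hDih : PkgDih.{v}) (hSD : PkgSD.{v}) (hMers : PkgMers)
    (hImpOdd : PkgImpOdd.{u, v}) (hImpQuot : PkgImpQuot.{u, v})
    (hImpCard : PkgImpCard.{u, v}) (hImpBasis : PkgImpBasis.{u, v})
    (hImpExact : PkgImpExact.{u, v})
    (q : ℕ) [Fact q.Prime] {V : Type u} [AddCommGroup V] [Module (ZMod q) V] [Finite V]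
    [Nontrivial V] {G : Type v} [Group G] [Finite G] (p : ℕ) [Fact p.Prime]
    (hG : IsPGroup p G) (ρ : G →* (V ≃ₗ[ZMod q] V)) (hρ : Function.Injective ρ)
    (hhalf : ∀ v w : V, v ≠ 0 → w ≠ 0 →
      Nat.card {u : V | ∃ g : G, ρ g v = u} = Nat.card {u : V | ∃ g : G, ρ g w = u}) :
    ((IsCyclic G ∨ ∃ n : ℕ, Nonempty (G ≃* QuaternionGroup n)) ∧
        ∀ v : V, v ≠ 0 → ∀ g : G, ρ g v = v → g = 1) ∨
    (Nat.card V = q ^ 2 ∧ ∃ m : ℕ, q = 2 ^ m - 1 ∧
      (Nonempty (G ≃* DihedralGroup (2 ^ m)) ∨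
        (Cfsg.IsQuasiDihedral G ∧ Nat.card G = 2 ^ (m + 2)))) ∨
    (Nat.card V = q ^ 2 ∧ (∃ m : ℕ, q = 2 ^ m + 1) ∧
      ∃ e : V ≃ₗ[ZMod q] (Fin 2 → ZMod q),
        ∀ f : (Fin 2 → ZMod q) ≃ₗ[ZMod q] (Fin 2 → ZMod q),
        (∃ g : G, f = e.symm.trans ((ρ g).trans e)) ↔
        ∃ a s : ZMod q, a ≠ 0 ∧ (s = 1 ∨ s = -1) ∧
          ((∀ v, f v = ![a * v 0, s * a⁻¹ * v 1]) ∨ (∀ v, f v = ![s * a⁻¹ * v 1, a * v 0]))) ∨
    (Nat.card V = 81 ∧ q = 3 ∧ p = 2) := by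
  classical
  have hEq : EqSt ρ := hStab ρ hhalf
  by_cases hsemi : Semi ρ
  · left
    refine ⟨?_, hsemi⟩
    by_cases hpq : p = q
    · subst hpq
      obtain ⟨v₀, hv₀, hfix⟩ := hFixQ ρ hG
      have htriv : ∀ g : G, g = 1 := fun g => hsemi v₀ hv₀ g (hfix g)
      left
      haveI : Subsingleton G := ⟨fun a b => by rw [htriv a, htriv b]⟩
      infer_instance
    · have hu := hUniq p ρ hG hpq hsemi
      rcases Cfsg.Agent.S0016.result p hG hu with h | ⟨-, n, hn⟩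
      · exact Or.inl h
      · exact Or.inr ⟨2 ^ n, hn⟩
  · right
    have hpq : p ≠ q := by
      intro hpq
      subst hpq
      obtain ⟨v₀, hv₀, hfix⟩ := hFixQ ρ hG
      apply hsemi
      intro v hv g hg
      have h1 : St ρ v₀ = ⊤ := by
        rw [eq_top_iff]
        intro x _
        exact hfix x
      apply hρ
      rw [map_one]
      apply LinearEquiv.ext
      intro w
      by_cases hw : w = 0
      · rw [hw, map_zero, map_zero]
      · have h2 : Nat.card (St ρ w) = Nat.card G := by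
          rw [hEq w v₀ hw hv₀, h1, Subgroup.card_top]
        have h3 : St ρ w = ⊤ := Subgroup.eq_top_of_card_eq _ h2
        have h4 : g ∈ St ρ w := by rw [h3]; exact Subgroup.mem_top g
        exact h4
    have hcent : CentFpf ρ := hCent p ρ hG hpq hρ hEq
    have hirr := hIrr p ρ hG hpq hρ hEq hsemi
    have hnab : ¬ ∀ a b : G, a * b = b * a := fun hab =>
      hsemi (semi_of_abelian ρ hcent hab)
    have hnq : ¬ ∃ n : ℕ, Nonempty (G ≃* QuaternionGroup n) := fun h =>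
      hsemi (hQuat p ρ hG hcent h)
    obtain ⟨d, -, hVd⟩ := Cfsg.Agent.Lib.Helper26.HUPT.pkgCard (q := q) (V := V)
    have hV1 : 1 < Nat.card V := Finite.one_lt_card
    have hfin : ∀ (k : ℕ) (C : Subgroup G) (z : G), p = 2 → MCData C z →
        Nat.card {t : G // t ∉ C ∧ t * t = 1} = 2 ^ k →
        Nat.card V = q ^ 2 ∧ q = 2 ^ k - 1 := by
      intro k C z hp2 hMC hT
      have hq2 : q ≠ 2 := fun h => hpq (hp2.trans h.symm)
      obtain ⟨Q, hQ1, hQ2⟩ := hCore ρ hq2 hEq hsemi hcent C z hMC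
      rw [hT] at hQ2
      have hQge : 2 ≤ Q := by
        by_contra hlt
        have h5 : Q ≤ 1 := by omega
        have h6 : Q * Q ≤ 1 := by nlinarith
        omega
      have hQq : Q = q := hMers q d Q k (Fact.out) (by rw [← hVd, hQ1]) hQ2 hQge
      rw [hQq] at hQ1 hQ2
      exact ⟨by rw [hQ1, pow_two], by omega⟩
    by_cases hd : ∃ n : ℕ, Nonempty (G ≃* DihedralGroup n)
    · obtain ⟨n, ⟨e⟩⟩ := hd
      left
      have hp2 : p = 2 := by
        apply ptwo_of_even p hG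
        rw [Nat.card_congr e.toEquiv, DihedralGroup.nat_card]
        exact dvd_mul_right 2 n
      have hG2 : IsPGroup 2 G := by
        rw [hp2] at hG
        exact hG
      obtain ⟨k, C, z, hn, hMC, hT⟩ := hDih n hG2 ⟨e⟩ hnab
      obtain ⟨h1, h2⟩ := hfin k C z hp2 hMC hT
      refine ⟨h1, k, h2, Or.inl ?_⟩
      rw [← hn]
      exact ⟨e⟩
    by_cases hsd : Cfsg.IsQuasiDihedral G
    · left
      obtain ⟨k, C, z, hcard, hMC, hT⟩ := hSD hsd
      have hp2 : p = 2 := by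
        apply ptwo_of_even p hG
        rw [hcard]
        exact dvd_pow_self 2 (by omega)
      obtain ⟨h1, h2⟩ := hfin k C z hp2 hMC hT
      exact ⟨h1, k, h2, Or.inr ⟨hsd, hcard⟩⟩
    right
    have hnc : ¬ IsCyclic G := by
      intro hc
      apply hnab
      intro a b
      obtain ⟨g, hg⟩ := IsCyclic.exists_generator (α := G)
      obtain ⟨i, rfl⟩ := Subgroup.mem_zpowers_iff.1 (hg a)
      obtain ⟨j, rfl⟩ := Subgroup.mem_zpowers_iff.1 (hg b)
      exact zpow_mul_comm g i j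
    have hnq' : ∀ n : ℕ, ¬ Nonempty (G ≃* QuaternionGroup n) := fun n h => hnq ⟨n, h⟩
    have hnd' : ∀ n : ℕ, ¬ Nonempty (G ≃* DihedralGroup n) := fun n h => hd ⟨n, h⟩
    obtain ⟨H, W, hImpr⟩ := Cfsg.Agent.S3380.result q p hG ρ hρ hirr hnc hnq' hnd' hsd
    have hImpr' : Impr p ρ H W := hImpr
    have hp2 : p = 2 := hImpOdd p ρ hρ hEq H W hImpr'
    subst hp2
    have hq2 : q ≠ 2 := fun h => hpq h.symm
    rcases hImpQuot ρ hG hq2 hρ hEq H W hImpr' with ⟨hW, hm⟩ | ⟨hq3, hW⟩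
    · left
      have hVc := hImpCard ρ H W hImpr'
      rw [hW] at hVc
      obtain ⟨e₀, e₁, x₀, hMono⟩ := hImpBasis ρ hq2 hρ hEq H W hImpr' hW
      exact ⟨by rw [hVc, pow_two], hm, hImpExact ρ H e₀ e₁ x₀ hMono⟩
    · right
      have hVc := hImpCard ρ H W hImpr'
      rw [hW] at hVc
      exact ⟨by rw [hVc], hq3, rfl⟩

end Cfsg.Agent.Lib.Helper68.Half
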