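import Mathlib
import Cfsg.Agent.Lib.Helper68.Half.Defs

/-!
# HALF project (S3371): package [CORE]

The counting argument for a group with a cyclic subgroup of index 2 whose outer involutions `t`
are conjugate to `t z`.
-/

set_option autoImplicit false
set_option linter.style.haveILetI false

universe u v

namespace Cfsg.Agent.Lib.Helper68.Half

/-- **[CORE]** -/
theorem pkgCore : PkgCore.{u, v} := by
  intro q _ V _ _ _ G _ _ ρ hq2 hEq hsemi hcent C z hMC
  classical
  obtain ⟨hidx, hzC, hzcen, hz1, hzz, hCz, hconj⟩ := hMC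
  letI : Fintype V := Fintype.ofFinite V
  letI : Fintype G := Fintype.ofFinite G
  have h2ne : (2 : ZMod q) ≠ 0 := by
    intro h
    have h1 : ((2 : ℕ) : ZMod q) = 0 := by exact_mod_cast h
    rw [ZMod.natCast_eq_zero_iff] at h1
    exact hq2 ((Nat.prime_dvd_prime_iff_eq (Fact.out) Nat.prime_two).1 h1)
  -- (a) `z` acts as `-1`
  have hzneg : ∀ v : V, ρ z v = -v := by
    intro v
    have h1 : ρ z (ρ z v + v) = ρ z v + v := by
      have h3 : ρ z (ρ z v) = v := by
        rw [← LinearEquiv.mul_apply, ← map_mul, hzz, map_one]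
        rfl
      rw [map_add, h3, add_comm]
    have h2 := hcent z hzcen hz1 _ h1
    exact eq_neg_of_add_eq_zero_left h2
  -- (b) `C` is semiregular
  have hCsemi : ∀ c ∈ C, c ≠ 1 → ∀ v : V, ρ c v = v → v = 0 := by
    intro c hc hc1 v hv
    obtain ⟨j, hj⟩ := hCz c hc hc1
    apply hcent z hzcen hz1 v
    rw [← hj]
    have hpow : ∀ j : ℕ, ρ (c ^ j) v = v := by
      intro j
      induction j with
      | zero => rw [pow_zero, map_one]; rfl
      | succ j ih => rw [pow_succ, map_mul, LinearEquiv.mul_apply, hv, ih]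
    exact hpow j
  -- a non-trivial stabilizer
  have hex : ∃ v₁ : V, v₁ ≠ 0 ∧ ∃ g₁ : G, g₁ ≠ 1 ∧ ρ g₁ v₁ = v₁ := by
    by_contra hcon
    apply hsemi
    intro v hv g hg
    by_contra hg1
    exact hcon ⟨v, hv, g, hg1, hg⟩
  obtain ⟨v₁, hv₁, g₁, hg₁, hg₁v⟩ := hex
  -- (c) uniqueness and existence of the outer involution fixing `v`
  have huniq : ∀ v : V, v ≠ 0 → ∀ t t' : G, t ∉ C → t' ∉ C → ρ t v = v → ρ t' v = v →
      t = t' := by
    intro v hv t t' ht ht' htv ht'v
    have h1 : t⁻¹ * t' ∈ C := by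
      rw [Subgroup.mul_mem_iff_of_index_two hidx, inv_mem_iff]
      exact ⟨fun h => absurd h ht, fun h => absurd h ht'⟩
    have h2 : ρ (t⁻¹ * t') v = v := by
      rw [map_mul, LinearEquiv.mul_apply, ht'v]
      have h3 : (t⁻¹ : G) ∈ St ρ v := inv_mem (show t ∈ St ρ v from htv)
      exact h3
    by_contra hne
    have h3 : t⁻¹ * t' ≠ 1 := fun h => hne (inv_mul_eq_one.1 h)
    exact hv (hCsemi _ h1 h3 v h2)
  have hexist : ∀ v : V, v ≠ 0 → ∃ t : G, t ∉ C ∧ t * t = 1 ∧ ρ t v = v := by
    intro v hv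
    have hcard : Nat.card (St ρ v) = Nat.card (St ρ v₁) := hEq v v₁ hv hv₁
    have h2 : 1 < Nat.card (St ρ v₁) := by
      rw [Finite.one_lt_card_iff_nontrivial]
      exact ⟨⟨⟨g₁, hg₁v⟩, 1, fun h => hg₁ (congrArg Subtype.val h)⟩⟩
    rw [← hcard, Finite.one_lt_card_iff_nontrivial] at h2
    obtain ⟨⟨t, ht⟩, ht1⟩ := exists_ne (1 : St ρ v)
    have ht1' : t ≠ 1 := fun h => ht1 (Subtype.ext h)
    have htv : ρ t v = v := ht
    have htC : t ∉ C := fun hC => hv (hCsemi t hC ht1' v htv)
    refine ⟨t, htC, ?_, htv⟩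
    by_contra hne
    have htt : ρ (t * t) v = v := by rw [map_mul, LinearEquiv.mul_apply, htv, htv]
    have httC : t * t ∈ C := by
      rw [Subgroup.mul_mem_iff_of_index_two hidx]
    exact hv (hCsemi _ httC hne v htt)
  -- (d) `|V| = |F_t| * |F_(tz)|`
  have hprod : ∀ t : G, t * t = 1 →
      Nat.card V = Nat.card {v : V // ρ t v = v} * Nat.card {v : V // ρ (t * z) v = v} := by
    intro t htt
    have ht2 : ∀ v, ρ t (ρ t v) = v := by
      intro v
      rw [← LinearEquiv.mul_apply, ← map_mul, htt, map_one]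
      rfl
    have htz : ∀ v, ρ (t * z) v = -ρ t v := by
      intro v
      rw [map_mul, LinearEquiv.mul_apply, hzneg, map_neg]
    rw [← Nat.card_prod]
    apply Nat.card_congr
    exact
      { toFun := fun v => (⟨v + ρ t v, by rw [map_add, ht2, add_comm]⟩,
          ⟨v - ρ t v, by rw [htz, map_sub, ht2, neg_sub]⟩)
        invFun := fun ab => (2⁻¹ : ZMod q) • ((ab.1 : V) + (ab.2 : V))
        left_inv := by
          intro v
          show (2⁻¹ : ZMod q) • ((v + ρ t v) + (v - ρ t v)) = v
          have h1 : (v + ρ t v) + (v - ρ t v) = (2 : ZMod q) • v := by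
            rw [two_smul]
            abel
          rw [h1, smul_smul, inv_mul_cancel₀ h2ne, one_smul]
        right_inv := by
          rintro ⟨⟨a, ha⟩, ⟨b, hb⟩⟩
          have hb' : ρ t b = -b := by
            have h := htz b
            rw [hb] at h
            exact neg_eq_iff_eq_neg.1 h.symm
          have hv : ρ t ((2⁻¹ : ZMod q) • (a + b)) = (2⁻¹ : ZMod q) • (a - b) := by
            rw [map_smul, map_add, ha, hb', sub_eq_add_neg]
          apply Prod.ext
          · apply Subtype.ext
            show (2⁻¹ : ZMod q) • (a + b) + ρ t ((2⁻¹ : ZMod q) • (a + b)) = a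
            rw [hv, ← smul_add]
            have h1 : (a + b) + (a - b) = (2 : ZMod q) • a := by
              rw [two_smul]
              abel
            rw [h1, smul_smul, inv_mul_cancel₀ h2ne, one_smul]
          · apply Subtype.ext
            show (2⁻¹ : ZMod q) • (a + b) - ρ t ((2⁻¹ : ZMod q) • (a + b)) = b
            rw [hv, ← smul_sub]
            have h1 : (a + b) - (a - b) = (2 : ZMod q) • b := by
              rw [two_smul]
              abel
            rw [h1, smul_smul, inv_mul_cancel₀ h2ne, one_smul] }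
  have hconjcard : ∀ t g : G, g * t * g⁻¹ = t * z →
      Nat.card {v : V // ρ (t * z) v = v} = Nat.card {v : V // ρ t v = v} := by
    intro t g hg
    symm
    apply Nat.card_congr
    refine (ρ g).toEquiv.subtypeEquiv (fun v => ?_)
    have key : ρ (t * z) (ρ g v) = ρ g (ρ t v) := by
      rw [← hg, ← LinearEquiv.mul_apply, ← LinearEquiv.mul_apply, ← map_mul, ← map_mul]
      congr 2
      group
    show ρ t v = v ↔ ρ (t * z) (ρ g v) = ρ g v
    rw [key]
    exact ⟨fun h => by rw [h], fun h => (ρ g).injective h⟩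
  -- finset version
  let F : G → Finset V := fun t => Finset.univ.filter (fun v : V => ρ t v = v)
  have hFcard : ∀ t : G, Nat.card {v : V // ρ t v = v} = (F t).card := by
    intro t
    rw [Nat.card_eq_fintype_card, Fintype.card_subtype]
  have hsq : ∀ t : G, t ∉ C → t * t = 1 → Fintype.card V = (F t).card * (F t).card := by
    intro t htC htt
    obtain ⟨g, hg⟩ := hconj t htC htt
    have h1 := hprod t htt
    rw [hconjcard t g hg, hFcard, Nat.card_eq_fintype_card] at h1
    exact h1
  obtain ⟨t₁, ht₁C, ht₁t, -⟩ := hexist v₁ hv₁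
  have hQ : ∀ t : G, t ∉ C → t * t = 1 → (F t).card = (F t₁).card := by
    intro t htC htt
    have h1 := hsq t htC htt
    have h2 := hsq t₁ ht₁C ht₁t
    exact Nat.mul_self_inj.1 (h1.symm.trans h2)
  let Tf : Finset G := Finset.univ.filter (fun t : G => t ∉ C ∧ t * t = 1)
  have hTcard : Nat.card {t : G // t ∉ C ∧ t * t = 1} = Tf.card := by
    rw [Nat.card_eq_fintype_card, Fintype.card_subtype]
  have hunion : (Finset.univ : Finset V).erase 0 = Tf.biUnion (fun t => (F t).erase 0) := by
    ext v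
    simp only [Finset.mem_erase, Finset.mem_univ, and_true, Finset.mem_biUnion,
      Finset.mem_filter, true_and, Tf, F]
    constructor
    · intro hv
      obtain ⟨t, htC, htt, htv⟩ := hexist v hv
      exact ⟨t, ⟨htC, htt⟩, hv, htv⟩
    · rintro ⟨t, -, hv, -⟩
      exact hv
  have hdisj : ∀ t ∈ Tf, ∀ t' ∈ Tf, t ≠ t' → Disjoint ((F t).erase 0) ((F t').erase 0) := by
    intro t ht t' ht' hne
    rw [Finset.disjoint_left]
    intro v hv hv'
    simp only [Finset.mem_erase, Finset.mem_filter, Finset.mem_univ, true_and, F] at hv hv'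
    simp only [Finset.mem_filter, Finset.mem_univ, true_and, Tf] at ht ht'
    exact hne (huniq v hv.1 t t' ht.1 ht'.1 hv.2 hv'.2)
  have hcount : Fintype.card V - 1 = Tf.card * ((F t₁).card - 1) := by
    have h1 : ((Finset.univ : Finset V).erase 0).card = Fintype.card V - 1 := by
      rw [Finset.card_erase_of_mem (Finset.mem_univ _), Finset.card_univ]
    rw [← h1, hunion, Finset.card_biUnion hdisj]
    rw [Finset.sum_congr rfl (fun t ht => ?_), Finset.sum_const, smul_eq_mul]
    simp only [Finset.mem_filter, Finset.mem_univ, true_and, Tf] at ht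
    have h0 : (0 : V) ∈ F t := by
      simp only [Finset.mem_filter, Finset.mem_univ, true_and, F]
      exact map_zero _
    rw [Finset.card_erase_of_mem h0, hQ t ht.1 ht.2]
  refine ⟨(F t₁).card, ?_, ?_⟩
  · rw [Nat.card_eq_fintype_card]
    exact hsq t₁ ht₁C ht₁t
  · rw [hTcard]
    have hV := hsq t₁ ht₁C ht₁t
    have hV2 : 2 ≤ Fintype.card V := by
      have : Nontrivial V := ⟨⟨v₁, 0, hv₁⟩⟩
      exact Fintype.one_lt_card
    rw [hV] at hcount hV2
    generalize (F t₁).card = Q at hcount hV2 ⊢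
    have hQ2 : 2 ≤ Q := by
      by_contra hlt
      have h5 : Q ≤ 1 := by omega
      have h6 : Q * Q ≤ 1 := by nlinarith
      omega
    obtain ⟨m, rfl⟩ : ∃ m, Q = m + 2 := ⟨Q - 2, by omega⟩
    have h7 : (m + 2) * (m + 2) - 1 = (m + 1) * (m + 3) := by
      have : (m + 2) * (m + 2) = (m + 1) * (m + 3) + 1 := by ring
      omega
    have h8 : (m + 1) * (m + 3) = (m + 1) * Tf.card := by
      rw [← h7, hcount]
      simp [Nat.mul_comm]
    have h9 := Nat.eq_of_mul_eq_mul_left (by omega : 0 < m + 1) h8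
    omega

end Cfsg.Agent.Lib.Helper68.Half
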