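import Mathlib
import Cfsg.Agent.Lib.Helper68.Half.Defs

/-!
# HALF project (S3371): package [IMPTR]
-/

set_option autoImplicit false

universe u v

namespace Cfsg.Agent.Lib.Helper68.Half

theorem fin_two_cases (x : Fin 2) : x = 0 ∨ x = 1 := by
  revert x
  decide

/-- a permutation of `Fin 2` of order 2 is the swap -/
theorem perm_fin_two_swap (σ : Equiv.Perm (Fin 2)) (hσ : orderOf σ = 2) : σ 0 = 1 ∧ σ 1 = 0 := by
  have hne : σ ≠ 1 := by
    intro h
    rw [h, orderOf_one] at hσ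
    omega
  rcases fin_two_cases (σ 0) with h00 | h01
  · have h11 : σ 1 = 1 := by
      rcases fin_two_cases (σ 1) with h | h
      · exact absurd (σ.injective (h.trans h00.symm)) (by decide)
      · exact h
    exfalso
    apply hne
    ext x
    rcases fin_two_cases x with rfl | rfl
    · rw [h00]; rfl
    · rw [h11]; rfl
  · refine ⟨h01, ?_⟩
    rcases fin_two_cases (σ 1) with h | h
    · exact h
    · exact absurd (σ.injective (h.trans h01.symm)) (by decide)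

section

variable {q : ℕ} [Fact q.Prime] {V : Type u} [AddCommGroup V] [Module (ZMod q) V]
  {G : Type v} [Group G]

/-- uniqueness of components -/
theorem impr_comp {ρ : G →* (V ≃ₗ[ZMod q] V)} {H : Subgroup G}
    {W : Fin 2 → Submodule (ZMod q) V} (hI : Impr 2 ρ H W) :
    ∀ a ∈ W 0, ∀ b ∈ W 1, ∀ a' ∈ W 0, ∀ b' ∈ W 1, a + b = a' + b' → a = a' ∧ b = b' := by
  obtain ⟨-, -, hind, -, -, -⟩ := hI
  have hdisj : Disjoint (W 0) (W 1) := hind.pairwiseDisjoint (by decide : (0 : Fin 2) ≠ 1)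
  intro a ha b hb a' ha' b' hb' h
  have h1 : a - a' = b' - b := by
    rw [sub_eq_sub_iff_add_eq_add, h, add_comm]
  have h2 : a - a' = 0 :=
    Submodule.disjoint_def.1 hdisj _ (sub_mem ha ha') (h1 ▸ sub_mem hb' hb)
  have h3 : b' - b = 0 := h1 ▸ h2
  exact ⟨sub_eq_zero.1 h2, (sub_eq_zero.1 h3).symm⟩

/-- elements outside `H` swap the two blocks -/
theorem impr_swap {ρ : G →* (V ≃ₗ[ZMod q] V)} {H : Subgroup G}
    {W : Fin 2 → Submodule (ZMod q) V} (hI : Impr 2 ρ H W) (g : G) (hg : g ∉ H) :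
    (∀ a ∈ W 0, ρ g a ∈ W 1) ∧ (∀ b ∈ W 1, ρ g b ∈ W 0) := by
  obtain ⟨-, -, -, -, -, hout⟩ := hI
  obtain ⟨σ, hσ, hmap⟩ := hout g hg
  obtain ⟨h01, h10⟩ := perm_fin_two_swap σ hσ
  constructor
  · intro a ha
    have h1 : ρ g a ∈ (W 0).map (ρ g : V →ₗ[ZMod q] V) := Submodule.mem_map_of_mem ha
    rw [hmap 0, h01] at h1
    exact h1
  · intro b hb
    have h1 : ρ g b ∈ (W 1).map (ρ g : V →ₗ[ZMod q] V) := Submodule.mem_map_of_mem hb
    rw [hmap 1, h10] at h1
    exact h1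

/-- every vector is a sum of components -/
theorem impr_span {ρ : G →* (V ≃ₗ[ZMod q] V)} {H : Subgroup G}
    {W : Fin 2 → Submodule (ZMod q) V} (hI : Impr 2 ρ H W) (v : V) :
    ∃ a ∈ W 0, ∃ b ∈ W 1, a + b = v := by
  obtain ⟨-, hsup, -, -, -, -⟩ := hI
  have hv : v ∈ W 0 ⊔ W 1 := by
    have h1 : iSup W ≤ W 0 ⊔ W 1 := by
      apply iSup_le
      intro i
      rcases fin_two_cases i with rfl | rfl
      · exact le_sup_left
      · exact le_sup_right
    rw [hsup] at h1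
    exact h1 Submodule.mem_top
  exact Submodule.mem_sup.1 hv

end

/-- **[IMPTR]** -/
theorem pkgImpTr : PkgImpTr.{u, v} := by
  intro q _ V _ _ _ _ G _ _ ρ hinj hEq H W hImpr w w' hw hw' hw0 hw'0
  classical
  have hcomp := impr_comp hImpr
  have hswap := impr_swap hImpr
  have hspan := impr_span hImpr
  obtain ⟨hidx, hsup, hind, hH, hfix, hout⟩ := hImpr
  obtain ⟨h₀, hh₀H, hh₀1, hh₀fix⟩ := hfix 0
  have hex : ∃ w₁ ∈ W 1, ρ h₀ w₁ ≠ w₁ := by
    by_contra hcon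
    apply hh₀1
    apply hinj
    rw [map_one]
    apply LinearEquiv.ext
    intro v
    obtain ⟨a, ha, b, hb, rfl⟩ := hspan v
    have hb' : ρ h₀ b = b := by
      by_contra hne
      exact hcon ⟨b, hb, hne⟩
    rw [map_add, hh₀fix a ha, hb']
    rfl
  obtain ⟨w₁, hw₁, hw₁ne⟩ := hex
  have hkey : ∀ u ∈ W 0, u ≠ 0 → ∃ g : G, g ∉ H ∧ ρ g u = w₁ := by
    intro u hu hu0
    have hv0 : u + w₁ ≠ 0 := by
      intro h
      exact hu0 (hcomp u hu w₁ hw₁ 0 (zero_mem _) 0 (zero_mem _) (by rw [h, add_zero])).1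
    by_contra hcon
    have hle : St ρ (u + w₁) ≤ St ρ u := by
      intro g hg
      have hgv : ρ g (u + w₁) = u + w₁ := hg
      by_cases hgH : g ∈ H
      · exact (hcomp (ρ g u) (hH g hgH 0 u hu) (ρ g w₁) (hH g hgH 1 w₁ hw₁) u hu w₁ hw₁
          (by rw [← map_add]; exact hgv)).1
      · exfalso
        obtain ⟨hs0, hs1⟩ := hswap g hgH
        have h1 := hcomp (ρ g w₁) (hs1 w₁ hw₁) (ρ g u) (hs0 u hu) u hu w₁ hw₁
          (by rw [add_comm, ← map_add]; exact hgv)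
        exact hcon ⟨g, hgH, h1.2⟩
    have heq : St ρ (u + w₁) = St ρ u :=
      Subgroup.eq_of_le_of_card_ge hle (le_of_eq (hEq u (u + w₁) hu0 hv0))
    have h1 : h₀ ∈ St ρ u := hh₀fix u hu
    rw [← heq] at h1
    have h2 : ρ h₀ (u + w₁) = u + w₁ := h1
    rw [map_add, hh₀fix u hu] at h2
    exact hw₁ne (add_left_cancel h2)
  obtain ⟨g, hg, hgw⟩ := hkey w hw hw0
  obtain ⟨g', hg', hg'w⟩ := hkey w' hw' hw'0
  refine ⟨g'⁻¹ * g, ?_, ?_⟩
  · rw [Subgroup.mul_mem_iff_of_index_two hidx, inv_mem_iff]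
    exact ⟨fun h => absurd h hg', fun h => absurd h hg⟩
  · rw [map_mul, LinearEquiv.mul_apply, hgw, ← hg'w, ← LinearEquiv.mul_apply, ← map_mul,
      inv_mul_cancel, map_one]
    rfl

end Cfsg.Agent.Lib.Helper68.Half
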