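import Mathlib
import Cfsg.Agent.Lib.Helper68.Half.ImpTr
import Cfsg.Agent.S3370

/-!
# HALF project (S3371): package [IMPQUOT]
-/

set_option autoImplicit false
set_option linter.style.haveILetI false

universe u v

namespace Cfsg.Agent.Lib.Helper68.Half

/-- **[IMPQUOT]** -/
theorem pkgImpQuot_of (hT : PkgImpTr.{u, v}) : PkgImpQuot.{u, v} := by
  intro q _ V _ _ _ _ G _ _ ρ hG hq2 hinj hEq H W hImpr
  classical
  have htr := hT ρ hinj hEq H W hImpr
  have hswap := impr_swap hImpr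
  have hspan := impr_span hImpr
  obtain ⟨hidx, hsup, hind, hH, hfix, hout⟩ := hImpr
  have h2ne : (2 : ZMod q) ≠ 0 := by
    intro h
    have h1 : ((2 : ℕ) : ZMod q) = 0 := by exact_mod_cast h
    rw [ZMod.natCast_eq_zero_iff] at h1
    exact hq2 ((Nat.prime_dvd_prime_iff_eq (Fact.out) Nat.prime_two).1 h1)
  -- `W 0 ≠ ⊥`
  obtain ⟨g₀, hg₀⟩ : ∃ g₀ : G, g₀ ∉ H := by
    by_contra hcon
    have htop : H = ⊤ := by
      rw [eq_top_iff]
      intro x _
      by_contra hx
      exact hcon ⟨x, hx⟩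
    rw [htop, Subgroup.index_top] at hidx
    omega
  have hW0 : ∃ w₀ ∈ W 0, w₀ ≠ 0 := by
    by_contra hcon
    have hz : ∀ a ∈ W 0, a = 0 := by
      intro a ha
      by_contra hne
      exact hcon ⟨a, ha, hne⟩
    obtain ⟨v, hv⟩ := exists_ne (0 : V)
    obtain ⟨a, ha, b, hb, rfl⟩ := hspan v
    have ha0 := hz a ha
    have hb0 : b = 0 := by
      have h1 := hz _ ((hswap g₀ hg₀).2 b hb)
      exact (ρ g₀).map_eq_zero_iff.1 h1
    exact hv (by rw [ha0, hb0, add_zero])
  obtain ⟨w₀, hw₀, hw₀ne⟩ := hW0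
  haveI : Nontrivial ↥(W 0) := ⟨⟨⟨w₀, hw₀⟩, 0, fun h => hw₀ne (congrArg Subtype.val h)⟩⟩
  -- restriction
  let res : ↥H →* (↥(W 0) ≃ₗ[ZMod q] ↥(W 0)) :=
    { toFun := fun h =>
        LinearEquiv.ofLinear
          ((ρ (h : G) : V →ₗ[ZMod q] V).restrict (fun w hw => hH h h.2 0 w hw))
          ((ρ ((h : G)⁻¹) : V →ₗ[ZMod q] V).restrict
            (fun w hw => hH _ (inv_mem h.2) 0 w hw))
          (by
            apply LinearMap.ext
            intro w
            apply Subtype.ext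
            show ρ (h : G) (ρ ((h : G)⁻¹) w) = w
            rw [← LinearEquiv.mul_apply, ← map_mul, mul_inv_cancel, map_one]
            rfl)
          (by
            apply LinearMap.ext
            intro w
            apply Subtype.ext
            show ρ ((h : G)⁻¹) (ρ (h : G) w) = w
            rw [← LinearEquiv.mul_apply, ← map_mul, inv_mul_cancel, map_one]
            rfl)
      map_one' := by
        apply LinearEquiv.ext
        intro w
        apply Subtype.ext
        show ρ ((1 : ↥H) : G) w = w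
        rw [Subgroup.coe_one, map_one]
        rfl
      map_mul' := by
        intro a b
        apply LinearEquiv.ext
        intro w
        apply Subtype.ext
        show ρ ((a * b : ↥H) : G) w = ρ (a : G) (ρ (b : G) w)
        rw [Subgroup.coe_mul, map_mul]
        rfl }
  have hres : ∀ (h : ↥H) (w : ↥(W 0)), ((res h) w : V) = ρ (h : G) w := fun _ _ => rfl
  haveI : Finite ↥res.range := Finite.of_surjective res.rangeRestrict res.rangeRestrict_surjective
  have hG' : IsPGroup 2 ↥res.range :=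
    IsPGroup.of_surjective (hG.to_subgroup H) res.rangeRestrict res.rangeRestrict_surjective
  have htrans' : ∀ a b : ↥(W 0), a ≠ 0 → b ≠ 0 →
      ∃ g : ↥res.range, (res.range.subtype g) a = b := by
    intro a b ha hb
    have ha' : (a : V) ≠ 0 := fun h => ha (Subtype.ext h)
    have hb' : (b : V) ≠ 0 := fun h => hb (Subtype.ext h)
    obtain ⟨h, hh, hhw⟩ := htr a b a.2 b.2 ha' hb'
    refine ⟨⟨res ⟨h, hh⟩, ⟨⟨h, hh⟩, rfl⟩⟩, ?_⟩
    apply Subtype.ext
    show ((res ⟨h, hh⟩) a : V) = b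
    rw [hres]
    exact hhw
  haveI : Nontrivial ↥res.range := by
    have h2w : (2 : ZMod q) • w₀ ≠ 0 := smul_ne_zero h2ne hw₀ne
    obtain ⟨h, hh, hhw⟩ := htr w₀ ((2 : ZMod q) • w₀) hw₀ (Submodule.smul_mem _ _ hw₀) hw₀ne h2w
    refine ⟨⟨⟨res ⟨h, hh⟩, ⟨⟨h, hh⟩, rfl⟩⟩, 1, ?_⟩⟩
    intro heq
    have h1 : res ⟨h, hh⟩ = 1 := congrArg Subtype.val heq
    have h2 : ((res ⟨h, hh⟩) ⟨w₀, hw₀⟩ : V) = w₀ := by
      rw [h1]
      rfl
    rw [hres] at h2
    have h3 : (2 : ZMod q) • w₀ = w₀ := hhw.symm.trans h2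
    have h4 : w₀ = 0 := by
      have h5 : (2 : ZMod q) • w₀ - w₀ = 0 := sub_eq_zero.2 h3
      rw [two_smul, add_sub_cancel_right] at h5
      exact h5
    exact hw₀ne h4
  haveI : Fact (Nat.Prime 2) := ⟨Nat.prime_two⟩
  rcases Cfsg.Agent.S3370.result q (V := ↥(W 0)) (G := ↥res.range) 2 hG' res.range.subtype
    (Subgroup.subtype_injective _) htrans' with ⟨hq, -⟩ | ⟨-, hc, ⟨m, hm, -⟩, -⟩ | ⟨-, hq3, hc, -⟩
  · exact absurd hq hq2
  · exact Or.inl ⟨hc, m, hm⟩
  · exact Or.inr ⟨hq3, hc⟩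

end Cfsg.Agent.Lib.Helper68.Half
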